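import Cfsg.Agent.Lib.SporRecognition.Cert.SuzG24V.LowerT

/-! Generated coset-enumeration certificate: Suz over <nonzero vectors of GF(4)^6>, 4095 cosets. -/

set_option autoImplicit false
set_option maxRecDepth 20000
set_option linter.all false
set_option Elab.async false

namespace CfsgLib.SporRecognition.Cert.SuzG24V

open CfsgLib.SporRecognition.CosetCert

def mark1Lit : Nat := 0x7ffffffffffffff8
noncomputable def mark1 (u : Nat) : Nat := Nat.land (Nat.shiftRight mark1Lit (Nat.mul 1 u)) 1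
def rk1Lit : Nat := 0x2efabbffaaeaefaffdffff7fd9a5ab00
noncomputable def rk1 (u : Nat) : Nat := Nat.land (Nat.shiftRight rk1Lit (Nat.mul 2 u)) 3
def via1Lit : Nat := 0x500634270206110563026010447445002542631072304344173217233710000
noncomputable def via1 (u : Nat) : Nat := Nat.land (Nat.shiftRight via1Lit (Nat.mul 4 u)) 15
def src1Lit : Nat := 0x1300d00c02602c00c01301302801c02a02802d02e03501c01301301303901c00901300700800703c00901c03802e02d02802d00302903c03e03803e02c02c03800303902f03703800300800300900c00300300e00800e007000000000000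
noncomputable def src1 (u : Nat) : Nat := Nat.land (Nat.shiftRight src1Lit (Nat.mul 12 u)) 4095
theorem reach1_c0 : allPow 4095 (reachStep [L1g0, L1g1, L1g2, L1g3, L1g4, L1g5, L1g6, L1g7] 3 mark1 rk1 via1 src1 4095) 10 0 = true := by decide +kernel
theorem reach1_c1 : allPow 4095 (reachStep [L1g0, L1g1, L1g2, L1g3, L1g4, L1g5, L1g6, L1g7] 3 mark1 rk1 via1 src1 4095) 10 1024 = true := by decide +kernel
theorem reach1_c2 : allPow 4095 (reachStep [L1g0, L1g1, L1g2, L1g3, L1g4, L1g5, L1g6, L1g7] 3 mark1 rk1 via1 src1 4095) 10 2048 = true := by decide +kernel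
theorem reach1_c3 : allPow 4095 (reachStep [L1g0, L1g1, L1g2, L1g3, L1g4, L1g5, L1g6, L1g7] 3 mark1 rk1 via1 src1 4095) 10 3072 = true := by decide +kernel
theorem reach1 : allBelow 12 4095 (reachStep [L1g0, L1g1, L1g2, L1g3, L1g4, L1g5, L1g6, L1g7] 3 mark1 rk1 via1 src1 4095) = true :=
  allBelow_of_upto (hi := 4096)
    (Upto.trans (mid := 2048) (Upto.trans (mid := 1024) ((Upto.of_pow reach1_c0 (Nat.le_refl _)) : Upto _ _ 0 (0 + 2 ^ 10))
    ((Upto.of_pow reach1_c1 (Nat.le_refl _)) : Upto _ _ 1024 (1024 + 2 ^ 10)))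
    (Upto.trans (mid := 3072) ((Upto.of_pow reach1_c2 (Nat.le_refl _)) : Upto _ _ 2048 (2048 + 2 ^ 10))
    ((Upto.of_pow reach1_c3 (Nat.le_refl _)) : Upto _ _ 3072 (3072 + 2 ^ 10))))
    (by decide) (by decide)

theorem count1 : countLab 12 4095 mark1 1 = 60 := by decide +kernel

end CfsgLib.SporRecognition.Cert.SuzG24V
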