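import Cfsg.Agent.Lib.SporRecognition.Cert.SuzG24V.LowerT

/-! Generated coset-enumeration certificate: Suz over <nonzero vectors of GF(4)^6>, 4095 cosets. -/

set_option autoImplicit false
set_option maxRecDepth 20000
set_option linter.all false
set_option Elab.async false

namespace CfsgLib.SporRecognition.Cert.SuzG24V

open CfsgLib.SporRecognition.CosetCert

def mark2Lit : Nat := 0x7fff8000
noncomputable def mark2 (u : Nat) : Nat := Nat.land (Nat.shiftRight mark2Lit (Nat.mul 1 u)) 1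
def rk2Lit : Nat := 0x2655a99600000000
noncomputable def rk2 (u : Nat) : Nat := Nat.land (Nat.shiftRight rk2Lit (Nat.mul 2 u)) 3
def via2Lit : Nat := 0x1908004aa304a74186500000000000000000000
noncomputable def via2 (u : Nat) : Nat := Nat.land (Nat.shiftRight via2Lit (Nat.mul 5 u)) 31
def src2Lit : Nat := 0x1b00f01200f00f00f00f01a01b01b00f01900f00f01a000000000000000000000000000000000000000000000000
noncomputable def src2 (u : Nat) : Nat := Nat.land (Nat.shiftRight src2Lit (Nat.mul 12 u)) 4095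
theorem reach2_c0 : allPow 4095 (reachStep [L2g0, L2g1, L2g2, L2g3, L2g4, L2g5, L2g6, L2g7, L2g8, L2g9, L2g10, L2g11, L2g12, L2g13, L2g14, L2g15, L2g16, L2g17, L2g18, L2g19, L2g20, L2g21] 15 mark2 rk2 via2 src2 4095) 10 0 = true := by decide +kernel
theorem reach2_c1 : allPow 4095 (reachStep [L2g0, L2g1, L2g2, L2g3, L2g4, L2g5, L2g6, L2g7, L2g8, L2g9, L2g10, L2g11, L2g12, L2g13, L2g14, L2g15, L2g16, L2g17, L2g18, L2g19, L2g20, L2g21] 15 mark2 rk2 via2 src2 4095) 10 1024 = true := by decide +kernel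
theorem reach2_c2 : allPow 4095 (reachStep [L2g0, L2g1, L2g2, L2g3, L2g4, L2g5, L2g6, L2g7, L2g8, L2g9, L2g10, L2g11, L2g12, L2g13, L2g14, L2g15, L2g16, L2g17, L2g18, L2g19, L2g20, L2g21] 15 mark2 rk2 via2 src2 4095) 10 2048 = true := by decide +kernel
theorem reach2_c3 : allPow 4095 (reachStep [L2g0, L2g1, L2g2, L2g3, L2g4, L2g5, L2g6, L2g7, L2g8, L2g9, L2g10, L2g11, L2g12, L2g13, L2g14, L2g15, L2g16, L2g17, L2g18, L2g19, L2g20, L2g21] 15 mark2 rk2 via2 src2 4095) 10 3072 = true := by decide +kernel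
theorem reach2 : allBelow 12 4095 (reachStep [L2g0, L2g1, L2g2, L2g3, L2g4, L2g5, L2g6, L2g7, L2g8, L2g9, L2g10, L2g11, L2g12, L2g13, L2g14, L2g15, L2g16, L2g17, L2g18, L2g19, L2g20, L2g21] 15 mark2 rk2 via2 src2 4095) = true :=
  allBelow_of_upto (hi := 4096)
    (Upto.trans (mid := 2048) (Upto.trans (mid := 1024) ((Upto.of_pow reach2_c0 (Nat.le_refl _)) : Upto _ _ 0 (0 + 2 ^ 10))
    ((Upto.of_pow reach2_c1 (Nat.le_refl _)) : Upto _ _ 1024 (1024 + 2 ^ 10)))
    (Upto.trans (mid := 3072) ((Upto.of_pow reach2_c2 (Nat.le_refl _)) : Upto _ _ 2048 (2048 + 2 ^ 10))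
    ((Upto.of_pow reach2_c3 (Nat.le_refl _)) : Upto _ _ 3072 (3072 + 2 ^ 10))))
    (by decide) (by decide)

theorem count2 : countLab 12 4095 mark2 1 = 16 := by decide +kernel

end CfsgLib.SporRecognition.Cert.SuzG24V
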