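import Cfsg.Agent.Lib.SporRecognition.Cert.SuzG24V.LowerT

/-! Generated coset-enumeration certificate: Suz over <nonzero vectors of GF(4)^6>, 4095 cosets. -/

set_option autoImplicit false
set_option maxRecDepth 20000
set_option linter.all false
set_option Elab.async false

namespace CfsgLib.SporRecognition.Cert.SuzG24V

open CfsgLib.SporRecognition.CosetCert

theorem L4eq0_c0 : allPow 4095 (fun u => Nat.beq (L4g0 u) (trace [L3g0, L3g10, L3g3, L3g12, L3g11] u)) 11 0 = true := by decide +kernel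
theorem L4eq0_c1 : allPow 4095 (fun u => Nat.beq (L4g0 u) (trace [L3g0, L3g10, L3g3, L3g12, L3g11] u)) 11 2048 = true := by decide +kernel
theorem L4eq0 : allBelow 12 4095 (fun u => Nat.beq (L4g0 u) (trace [L3g0, L3g10, L3g3, L3g12, L3g11] u)) = true :=
  allBelow_of_upto (hi := 4096)
    (Upto.trans (mid := 2048) ((Upto.of_pow L4eq0_c0 (Nat.le_refl _)) : Upto _ _ 0 (0 + 2 ^ 11))
    ((Upto.of_pow L4eq0_c1 (Nat.le_refl _)) : Upto _ _ 2048 (2048 + 2 ^ 11)))
    (by decide) (by decide)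

theorem L4eq1_c0 : allPow 4095 (fun u => Nat.beq (L4g1 u) (trace [L3g0, L3g7, L3g19, L3g12, L3g11] u)) 11 0 = true := by decide +kernel
theorem L4eq1_c1 : allPow 4095 (fun u => Nat.beq (L4g1 u) (trace [L3g0, L3g7, L3g19, L3g12, L3g11] u)) 11 2048 = true := by decide +kernel
theorem L4eq1 : allBelow 12 4095 (fun u => Nat.beq (L4g1 u) (trace [L3g0, L3g7, L3g19, L3g12, L3g11] u)) = true :=
  allBelow_of_upto (hi := 4096)
    (Upto.trans (mid := 2048) ((Upto.of_pow L4eq1_c0 (Nat.le_refl _)) : Upto _ _ 0 (0 + 2 ^ 11))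
    ((Upto.of_pow L4eq1_c1 (Nat.le_refl _)) : Upto _ _ 2048 (2048 + 2 ^ 11)))
    (by decide) (by decide)

theorem L4eq2_c0 : allPow 4095 (fun u => Nat.beq (L4g2 u) (trace [L3g0, L3g1, L3g9, L3g16, L3g12, L3g11] u)) 11 0 = true := by decide +kernel
theorem L4eq2_c1 : allPow 4095 (fun u => Nat.beq (L4g2 u) (trace [L3g0, L3g1, L3g9, L3g16, L3g12, L3g11] u)) 11 2048 = true := by decide +kernel
theorem L4eq2 : allBelow 12 4095 (fun u => Nat.beq (L4g2 u) (trace [L3g0, L3g1, L3g9, L3g16, L3g12, L3g11] u)) = true :=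
  allBelow_of_upto (hi := 4096)
    (Upto.trans (mid := 2048) ((Upto.of_pow L4eq2_c0 (Nat.le_refl _)) : Upto _ _ 0 (0 + 2 ^ 11))
    ((Upto.of_pow L4eq2_c1 (Nat.le_refl _)) : Upto _ _ 2048 (2048 + 2 ^ 11)))
    (by decide) (by decide)

theorem L4inv0 : allBelow 12 4095 (invStep L4g0 L4g3 4095) = true := by decide +kernel

theorem L4inv1 : allBelow 12 4095 (invStep L4g1 L4g4 4095) = true := by decide +kernel

theorem L4inv2 : allBelow 12 4095 (invStep L4g2 L4g5 4095) = true := by decide +kernel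

end CfsgLib.SporRecognition.Cert.SuzG24V
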