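import Cfsg.Agent.Lib.SporRecognition.Cert.SuzG24V.LowerC1
import Cfsg.Agent.Lib.SporRecognition.Cert.SuzG24V.LowerC2
import Cfsg.Agent.Lib.SporRecognition.Cert.SuzG24V.LowerC3
import Cfsg.Agent.Lib.SporRecognition.Cert.SuzG24V.LowerC4
import Cfsg.Agent.Lib.SporRecognition.Cert.SuzG24V.LowerC5
import Cfsg.Agent.Lib.SporRecognition.Cert.SuzG24V.LowerC6
import Cfsg.Agent.Lib.SporRecognition.Cert.SuzG24V.LowerC7
import Cfsg.Agent.Lib.SporRecognition.Cert.SuzG24V.LowerC8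
import Cfsg.Agent.Lib.SporRecognition.Cert.SuzG24V.LowerC9
import Cfsg.Agent.Lib.SporRecognition.Cert.SuzG24V.LowerC10

/-! Generated coset-enumeration certificate: Suz over <nonzero vectors of GF(4)^6>, 4095 cosets. -/

set_option autoImplicit false
set_option maxRecDepth 20000
set_option linter.all false
set_option Elab.async false

namespace CfsgLib.SporRecognition.Cert.SuzG24V

open CfsgLib.SporRecognition.CosetCert

theorem lower : ∀ Q : Subgroup (Equiv.Perm (Fin 4095)), (∀ t ∈ seedT, Realised Q t) → 251596800 ≤ Nat.card Q := by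
  intro Q hQ
  have q0_0 : Realised (ptsStab Q ([] : List (Fin 4095))) L0g0 := Realised.mono (ptsStab_nil Q).ge (hQ _ (by simp [seedT]))
  have q0_2 : Realised (ptsStab Q ([] : List (Fin 4095))) L0g2 := Realised.inv q0_0 L0inv0
  have q0_1 : Realised (ptsStab Q ([] : List (Fin 4095))) L0g1 := Realised.mono (ptsStab_nil Q).ge (hQ _ (by simp [seedT]))
  have q0_3 : Realised (ptsStab Q ([] : List (Fin 4095))) L0g3 := Realised.inv q0_1 L0inv1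
  have R0 : ∀ t ∈ [L0g0, L0g1, L0g2, L0g3], Realised (ptsStab Q ([] : List (Fin 4095))) t :=
    List.forall_mem_cons.mpr ⟨q0_0, List.forall_mem_cons.mpr ⟨q0_1, List.forall_mem_cons.mpr ⟨q0_2, List.forall_mem_cons.mpr ⟨q0_3, (fun _ h => absurd h List.not_mem_nil)⟩⟩⟩⟩
  have q1_0 : Realised (ptsStab Q ([⟨0, by decide⟩] : List (Fin 4095))) L1g0 :=
    realised_new (prev := ([] : List (Fin 4095))) (ts := [L0g2, L0g2, L0g1, L0g1, L0g0, L0g1, L0g0, L0g3, L0g0, L0g1, L0g2, L0g1, L0g0, L0g3, L0g3, L0g3, L0g2])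
      (List.forall_mem_cons.mpr ⟨q0_2, (List.forall_mem_cons.mpr ⟨q0_2, (List.forall_mem_cons.mpr ⟨q0_1, (List.forall_mem_cons.mpr ⟨q0_1, (List.forall_mem_cons.mpr ⟨q0_0, (List.forall_mem_cons.mpr ⟨q0_1, (List.forall_mem_cons.mpr ⟨q0_0, (List.forall_mem_cons.mpr ⟨q0_3, (List.forall_mem_cons.mpr ⟨q0_0, (List.forall_mem_cons.mpr ⟨q0_1, (List.forall_mem_cons.mpr ⟨q0_2, (List.forall_mem_cons.mpr ⟨q0_1, (List.forall_mem_cons.mpr ⟨q0_0, (List.forall_mem_cons.mpr ⟨q0_3, (List.forall_mem_cons.mpr ⟨q0_3, (List.forall_mem_cons.mpr ⟨q0_3, (List.forall_mem_cons.mpr ⟨q0_2, (fun _ h => absurd h List.not_mem_nil)⟩)⟩)⟩)⟩)⟩)⟩)⟩)⟩)⟩)⟩)⟩)⟩)⟩)⟩)⟩)⟩)⟩) L1eq0 (by decide +kernel)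
  have q1_4 : Realised (ptsStab Q ([⟨0, by decide⟩] : List (Fin 4095))) L1g4 := Realised.inv q1_0 L1inv0
  have q1_1 : Realised (ptsStab Q ([⟨0, by decide⟩] : List (Fin 4095))) L1g1 :=
    realised_new (prev := ([] : List (Fin 4095))) (ts := [L0g1, L0g0, L0g3, L0g0, L0g3, L0g3, L0g2, L0g3, L0g2, L0g3, L0g2, L0g1, L0g0, L0g3, L0g2, L0g1, L0g2])
      (List.forall_mem_cons.mpr ⟨q0_1, (List.forall_mem_cons.mpr ⟨q0_0, (List.forall_mem_cons.mpr ⟨q0_3, (List.forall_mem_cons.mpr ⟨q0_0, (List.forall_mem_cons.mpr ⟨q0_3, (List.forall_mem_cons.mpr ⟨q0_3, (List.forall_mem_cons.mpr ⟨q0_2, (List.forall_mem_cons.mpr ⟨q0_3, (List.forall_mem_cons.mpr ⟨q0_2, (List.forall_mem_cons.mpr ⟨q0_3, (List.forall_mem_cons.mpr ⟨q0_2, (List.forall_mem_cons.mpr ⟨q0_1, (List.forall_mem_cons.mpr ⟨q0_0, (List.forall_mem_cons.mpr ⟨q0_3, (List.forall_mem_cons.mpr ⟨q0_2, (List.forall_mem_cons.mpr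 ⟨q0_1, (List.forall_mem_cons.mpr ⟨q0_2, (fun _ h => absurd h List.not_mem_nil)⟩)⟩)⟩)⟩)⟩)⟩)⟩)⟩)⟩)⟩)⟩)⟩)⟩)⟩)⟩)⟩)⟩) L1eq1 (by decide +kernel)
  have q1_5 : Realised (ptsStab Q ([⟨0, by decide⟩] : List (Fin 4095))) L1g5 := Realised.inv q1_1 L1inv1
  have q1_2 : Realised (ptsStab Q ([⟨0, by decide⟩] : List (Fin 4095))) L1g2 :=
    realised_new (prev := ([] : List (Fin 4095))) (ts := [L0g2, L0g2, L0g2, L0g3, L0g0, L0g3, L0g2, L0g3, L0g3, L0g0, L0g3, L0g0, L0g3, L0g0, L0g3])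
      (List.forall_mem_cons.mpr ⟨q0_2, (List.forall_mem_cons.mpr ⟨q0_2, (List.forall_mem_cons.mpr ⟨q0_2, (List.forall_mem_cons.mpr ⟨q0_3, (List.forall_mem_cons.mpr ⟨q0_0, (List.forall_mem_cons.mpr ⟨q0_3, (List.forall_mem_cons.mpr ⟨q0_2, (List.forall_mem_cons.mpr ⟨q0_3, (List.forall_mem_cons.mpr ⟨q0_3, (List.forall_mem_cons.mpr ⟨q0_0, (List.forall_mem_cons.mpr ⟨q0_3, (List.forall_mem_cons.mpr ⟨q0_0, (List.forall_mem_cons.mpr ⟨q0_3, (List.forall_mem_cons.mpr ⟨q0_0, (List.forall_mem_cons.mpr ⟨q0_3, (fun _ h => absurd h List.not_mem_nil)⟩)⟩)⟩)⟩)⟩)⟩)⟩)⟩)⟩)⟩)⟩)⟩)⟩)⟩)⟩) L1eq2 (by decide +kernel)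
  have q1_6 : Realised (ptsStab Q ([⟨0, by decide⟩] : List (Fin 4095))) L1g6 := Realised.inv q1_2 L1inv2
  have q1_3 : Realised (ptsStab Q ([⟨0, by decide⟩] : List (Fin 4095))) L1g3 :=
    realised_new (prev := ([] : List (Fin 4095))) (ts := [L0g0, L0g1, L0g2, L0g3, L0g0, L0g0, L0g0, L0g3, L0g2, L0g2, L0g3, L0g3, L0g2, L0g1, L0g2, L0g2])
      (List.forall_mem_cons.mpr ⟨q0_0, (List.forall_mem_cons.mpr ⟨q0_1, (List.forall_mem_cons.mpr ⟨q0_2, (List.forall_mem_cons.mpr ⟨q0_3, (List.forall_mem_cons.mpr ⟨q0_0, (List.forall_mem_cons.mpr ⟨q0_0, (List.forall_mem_cons.mpr ⟨q0_0, (List.forall_mem_cons.mpr ⟨q0_3, (List.forall_mem_cons.mpr ⟨q0_2, (List.forall_mem_cons.mpr ⟨q0_2, (List.forall_mem_cons.mpr ⟨q0_3, (List.forall_mem_cons.mpr ⟨q0_3, (List.forall_mem_cons.mpr ⟨q0_2, (List.forall_mem_cons.mpr ⟨q0_1, (List.forall_mem_cons.mpr ⟨q0_2, (List.forall_mem_cons.mpr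 ⟨q0_2, (fun _ h => absurd h List.not_mem_nil)⟩)⟩)⟩)⟩)⟩)⟩)⟩)⟩)⟩)⟩)⟩)⟩)⟩)⟩)⟩)⟩) L1eq3 (by decide +kernel)
  have q1_7 : Realised (ptsStab Q ([⟨0, by decide⟩] : List (Fin 4095))) L1g7 := Realised.inv q1_3 L1inv3
  have R1 : ∀ t ∈ [L1g0, L1g1, L1g2, L1g3, L1g4, L1g5, L1g6, L1g7], Realised (ptsStab Q ([⟨0, by decide⟩] : List (Fin 4095))) t :=
    List.forall_mem_cons.mpr ⟨q1_0, List.forall_mem_cons.mpr ⟨q1_1, List.forall_mem_cons.mpr ⟨q1_2, List.forall_mem_cons.mpr ⟨q1_3, List.forall_mem_cons.mpr ⟨q1_4, List.forall_mem_cons.mpr ⟨q1_5, List.forall_mem_cons.mpr ⟨q1_6, List.forall_mem_cons.mpr ⟨q1_7, (fun _ h => absurd h List.not_mem_nil)⟩⟩⟩⟩⟩⟩⟩⟩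
  have q2_0 : Realised (ptsStab Q ([⟨0, by decide⟩, ⟨3, by decide⟩] : List (Fin 4095))) L2g0 :=
    realised_new (prev := ([⟨0, by decide⟩] : List (Fin 4095))) (ts := [L1g4, L1g2, L1g0, L1g2, L1g4, L1g2, L1g4])
      (List.forall_mem_cons.mpr ⟨q1_4, (List.forall_mem_cons.mpr ⟨q1_2, (List.forall_mem_cons.mpr ⟨q1_0, (List.forall_mem_cons.mpr ⟨q1_2, (List.forall_mem_cons.mpr ⟨q1_4, (List.forall_mem_cons.mpr ⟨q1_2, (List.forall_mem_cons.mpr ⟨q1_4, (fun _ h => absurd h List.not_mem_nil)⟩)⟩)⟩)⟩)⟩)⟩)⟩) L2eq0 (by decide +kernel)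
  have q2_11 : Realised (ptsStab Q ([⟨0, by decide⟩, ⟨3, by decide⟩] : List (Fin 4095))) L2g11 := Realised.inv q2_0 L2inv0
  have q2_1 : Realised (ptsStab Q ([⟨0, by decide⟩, ⟨3, by decide⟩] : List (Fin 4095))) L2g1 :=
    realised_new (prev := ([⟨0, by decide⟩] : List (Fin 4095))) (ts := [L1g0, L1g1, L1g2, L1g3, L1g2, L1g0])
      (List.forall_mem_cons.mpr ⟨q1_0, (List.forall_mem_cons.mpr ⟨q1_1, (List.forall_mem_cons.mpr ⟨q1_2, (List.forall_mem_cons.mpr ⟨q1_3, (List.forall_mem_cons.mpr ⟨q1_2, (List.forall_mem_cons.mpr ⟨q1_0, (fun _ h => absurd h List.not_mem_nil)⟩)⟩)⟩)⟩)⟩)⟩) L2eq1 (by decide +kernel)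
  have q2_12 : Realised (ptsStab Q ([⟨0, by decide⟩, ⟨3, by decide⟩] : List (Fin 4095))) L2g12 := Realised.inv q2_1 L2inv1
  have q2_2 : Realised (ptsStab Q ([⟨0, by decide⟩, ⟨3, by decide⟩] : List (Fin 4095))) L2g2 :=
    realised_new (prev := ([⟨0, by decide⟩] : List (Fin 4095))) (ts := [L1g4, L1g4, L1g4, L1g4, L1g4])
      (List.forall_mem_cons.mpr ⟨q1_4, (List.forall_mem_cons.mpr ⟨q1_4, (List.forall_mem_cons.mpr ⟨q1_4, (List.forall_mem_cons.mpr ⟨q1_4, (List.forall_mem_cons.mpr ⟨q1_4, (fun _ h => absurd h List.not_mem_nil)⟩)⟩)⟩)⟩)⟩) L2eq2 (by decide +kernel)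
  have q2_13 : Realised (ptsStab Q ([⟨0, by decide⟩, ⟨3, by decide⟩] : List (Fin 4095))) L2g13 := Realised.inv q2_2 L2inv2
  have q2_3 : Realised (ptsStab Q ([⟨0, by decide⟩, ⟨3, by decide⟩] : List (Fin 4095))) L2g3 :=
    realised_new (prev := ([⟨0, by decide⟩] : List (Fin 4095))) (ts := [L1g7, L1g4, L1g3, L1g2, L1g0, L1g6])
      (List.forall_mem_cons.mpr ⟨q1_7, (List.forall_mem_cons.mpr ⟨q1_4, (List.forall_mem_cons.mpr ⟨q1_3, (List.forall_mem_cons.mpr ⟨q1_2, (List.forall_mem_cons.mpr ⟨q1_0, (List.forall_mem_cons.mpr ⟨q1_6, (fun _ h => absurd h List.not_mem_nil)⟩)⟩)⟩)⟩)⟩)⟩) L2eq3 (by decide +kernel)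
  have q2_14 : Realised (ptsStab Q ([⟨0, by decide⟩, ⟨3, by decide⟩] : List (Fin 4095))) L2g14 := Realised.inv q2_3 L2inv3
  have q2_4 : Realised (ptsStab Q ([⟨0, by decide⟩, ⟨3, by decide⟩] : List (Fin 4095))) L2g4 :=
    realised_new (prev := ([⟨0, by decide⟩] : List (Fin 4095))) (ts := [L1g2, L1g3, L1g2, L1g3])
      (List.forall_mem_cons.mpr ⟨q1_2, (List.forall_mem_cons.mpr ⟨q1_3, (List.forall_mem_cons.mpr ⟨q1_2, (List.forall_mem_cons.mpr ⟨q1_3, (fun _ h => absurd h List.not_mem_nil)⟩)⟩)⟩)⟩) L2eq4 (by decide +kernel)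
  have q2_15 : Realised (ptsStab Q ([⟨0, by decide⟩, ⟨3, by decide⟩] : List (Fin 4095))) L2g15 := Realised.inv q2_4 L2inv4
  have q2_5 : Realised (ptsStab Q ([⟨0, by decide⟩, ⟨3, by decide⟩] : List (Fin 4095))) L2g5 :=
    realised_new (prev := ([⟨0, by decide⟩] : List (Fin 4095))) (ts := [L1g2, L1g3, L1g1, L1g6, L1g3])
      (List.forall_mem_cons.mpr ⟨q1_2, (List.forall_mem_cons.mpr ⟨q1_3, (List.forall_mem_cons.mpr ⟨q1_1, (List.forall_mem_cons.mpr ⟨q1_6, (List.forall_mem_cons.mpr ⟨q1_3, (fun _ h => absurd h List.not_mem_nil)⟩)⟩)⟩)⟩)⟩) L2eq5 (by decide +kernel)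
  have q2_16 : Realised (ptsStab Q ([⟨0, by decide⟩, ⟨3, by decide⟩] : List (Fin 4095))) L2g16 := Realised.inv q2_5 L2inv5
  have q2_6 : Realised (ptsStab Q ([⟨0, by decide⟩, ⟨3, by decide⟩] : List (Fin 4095))) L2g6 :=
    realised_new (prev := ([⟨0, by decide⟩] : List (Fin 4095))) (ts := [L1g0, L1g3, L1g1, L1g0, L1g0, L1g3])
      (List.forall_mem_cons.mpr ⟨q1_0, (List.forall_mem_cons.mpr ⟨q1_3, (List.forall_mem_cons.mpr ⟨q1_1, (List.forall_mem_cons.mpr ⟨q1_0, (List.forall_mem_cons.mpr ⟨q1_0, (List.forall_mem_cons.mpr ⟨q1_3, (fun _ h => absurd h List.not_mem_nil)⟩)⟩)⟩)⟩)⟩)⟩) L2eq6 (by decide +kernel)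
  have q2_17 : Realised (ptsStab Q ([⟨0, by decide⟩, ⟨3, by decide⟩] : List (Fin 4095))) L2g17 := Realised.inv q2_6 L2inv6
  have q2_7 : Realised (ptsStab Q ([⟨0, by decide⟩, ⟨3, by decide⟩] : List (Fin 4095))) L2g7 :=
    realised_new (prev := ([⟨0, by decide⟩] : List (Fin 4095))) (ts := [L1g7, L1g2, L1g7, L1g5, L1g7, L1g5])
      (List.forall_mem_cons.mpr ⟨q1_7, (List.forall_mem_cons.mpr ⟨q1_2, (List.forall_mem_cons.mpr ⟨q1_7, (List.forall_mem_cons.mpr ⟨q1_5, (List.forall_mem_cons.mpr ⟨q1_7, (List.forall_mem_cons.mpr ⟨q1_5, (fun _ h => absurd h List.not_mem_nil)⟩)⟩)⟩)⟩)⟩)⟩) L2eq7 (by decide +kernel)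
  have q2_18 : Realised (ptsStab Q ([⟨0, by decide⟩, ⟨3, by decide⟩] : List (Fin 4095))) L2g18 := Realised.inv q2_7 L2inv7
  have q2_8 : Realised (ptsStab Q ([⟨0, by decide⟩, ⟨3, by decide⟩] : List (Fin 4095))) L2g8 :=
    realised_new (prev := ([⟨0, by decide⟩] : List (Fin 4095))) (ts := [L1g3, L1g4, L1g2, L1g2, L1g3, L1g4, L1g4])
      (List.forall_mem_cons.mpr ⟨q1_3, (List.forall_mem_cons.mpr ⟨q1_4, (List.forall_mem_cons.mpr ⟨q1_2, (List.forall_mem_cons.mpr ⟨q1_2, (List.forall_mem_cons.mpr ⟨q1_3, (List.forall_mem_cons.mpr ⟨q1_4, (List.forall_mem_cons.mpr ⟨q1_4, (fun _ h => absurd h List.not_mem_nil)⟩)⟩)⟩)⟩)⟩)⟩)⟩) L2eq8 (by decide +kernel)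
  have q2_19 : Realised (ptsStab Q ([⟨0, by decide⟩, ⟨3, by decide⟩] : List (Fin 4095))) L2g19 := Realised.inv q2_8 L2inv8
  have q2_9 : Realised (ptsStab Q ([⟨0, by decide⟩, ⟨3, by decide⟩] : List (Fin 4095))) L2g9 :=
    realised_new (prev := ([⟨0, by decide⟩] : List (Fin 4095))) (ts := [L1g1, L1g6, L1g6])
      (List.forall_mem_cons.mpr ⟨q1_1, (List.forall_mem_cons.mpr ⟨q1_6, (List.forall_mem_cons.mpr ⟨q1_6, (fun _ h => absurd h List.not_mem_nil)⟩)⟩)⟩) L2eq9 (by decide +kernel)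
  have q2_20 : Realised (ptsStab Q ([⟨0, by decide⟩, ⟨3, by decide⟩] : List (Fin 4095))) L2g20 := Realised.inv q2_9 L2inv9
  have q2_10 : Realised (ptsStab Q ([⟨0, by decide⟩, ⟨3, by decide⟩] : List (Fin 4095))) L2g10 :=
    realised_new (prev := ([⟨0, by decide⟩] : List (Fin 4095))) (ts := [L1g3, L1g0, L1g6, L1g3, L1g0, L1g7, L1g5])
      (List.forall_mem_cons.mpr ⟨q1_3, (List.forall_mem_cons.mpr ⟨q1_0, (List.forall_mem_cons.mpr ⟨q1_6, (List.forall_mem_cons.mpr ⟨q1_3, (List.forall_mem_cons.mpr ⟨q1_0, (List.forall_mem_cons.mpr ⟨q1_7, (List.forall_mem_cons.mpr ⟨q1_5, (fun _ h => absurd h List.not_mem_nil)⟩)⟩)⟩)⟩)⟩)⟩)⟩) L2eq10 (by decide +kernel)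
  have q2_21 : Realised (ptsStab Q ([⟨0, by decide⟩, ⟨3, by decide⟩] : List (Fin 4095))) L2g21 := Realised.inv q2_10 L2inv10
  have R2 : ∀ t ∈ [L2g0, L2g1, L2g2, L2g3, L2g4, L2g5, L2g6, L2g7, L2g8, L2g9, L2g10, L2g11, L2g12, L2g13, L2g14, L2g15, L2g16, L2g17, L2g18, L2g19, L2g20, L2g21], Realised (ptsStab Q ([⟨0, by decide⟩, ⟨3, by decide⟩] : List (Fin 4095))) t :=
    List.forall_mem_cons.mpr ⟨q2_0, List.forall_mem_cons.mpr ⟨q2_1, List.forall_mem_cons.mpr ⟨q2_2, List.forall_mem_cons.mpr ⟨q2_3, List.forall_mem_cons.mpr ⟨q2_4, List.forall_mem_cons.mpr ⟨q2_5, List.forall_mem_cons.mpr ⟨q2_6, List.forall_mem_cons.mpr ⟨q2_7, List.forall_mem_cons.mpr ⟨q2_8, List.forall_mem_cons.mpr ⟨q2_9, List.forall_mem_cons.mpr ⟨q2_10, List.forall_mem_cons.mpr ⟨q2_11, List.forall_mem_cons.mpr ⟨q2_12, List.forall_mem_cons.mpr ⟨q2_13, List.forall_mem_cons.mpr ⟨q2_14, List.forall_mem_cons.mpr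 ⟨q2_15, List.forall_mem_cons.mpr ⟨q2_16, List.forall_mem_cons.mpr ⟨q2_17, List.forall_mem_cons.mpr ⟨q2_18, List.forall_mem_cons.mpr ⟨q2_19, List.forall_mem_cons.mpr ⟨q2_20, List.forall_mem_cons.mpr ⟨q2_21, (fun _ h => absurd h List.not_mem_nil)⟩⟩⟩⟩⟩⟩⟩⟩⟩⟩⟩⟩⟩⟩⟩⟩⟩⟩⟩⟩⟩⟩
  have q3_0 : Realised (ptsStab Q ([⟨0, by decide⟩, ⟨3, by decide⟩, ⟨15, by decide⟩] : List (Fin 4095))) L3g0 :=
    realised_new (prev := ([⟨0, by decide⟩, ⟨3, by decide⟩] : List (Fin 4095))) (ts := [L2g3, L2g18, L2g12, L2g11])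
      (List.forall_mem_cons.mpr ⟨q2_3, (List.forall_mem_cons.mpr ⟨q2_18, (List.forall_mem_cons.mpr ⟨q2_12, (List.forall_mem_cons.mpr ⟨q2_11, (fun _ h => absurd h List.not_mem_nil)⟩)⟩)⟩)⟩) L3eq0 (by decide +kernel)
  have q3_11 : Realised (ptsStab Q ([⟨0, by decide⟩, ⟨3, by decide⟩, ⟨15, by decide⟩] : List (Fin 4095))) L3g11 := Realised.inv q3_0 L3inv0
  have q3_1 : Realised (ptsStab Q ([⟨0, by decide⟩, ⟨3, by decide⟩, ⟨15, by decide⟩] : List (Fin 4095))) L3g1 :=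
    realised_new (prev := ([⟨0, by decide⟩, ⟨3, by decide⟩] : List (Fin 4095))) (ts := [L2g8, L2g14, L2g11])
      (List.forall_mem_cons.mpr ⟨q2_8, (List.forall_mem_cons.mpr ⟨q2_14, (List.forall_mem_cons.mpr ⟨q2_11, (fun _ h => absurd h List.not_mem_nil)⟩)⟩)⟩) L3eq1 (by decide +kernel)
  have q3_12 : Realised (ptsStab Q ([⟨0, by decide⟩, ⟨3, by decide⟩, ⟨15, by decide⟩] : List (Fin 4095))) L3g12 := Realised.inv q3_1 L3inv1
  have q3_2 : Realised (ptsStab Q ([⟨0, by decide⟩, ⟨3, by decide⟩, ⟨15, by decide⟩] : List (Fin 4095))) L3g2 :=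
    realised_new (prev := ([⟨0, by decide⟩, ⟨3, by decide⟩] : List (Fin 4095))) (ts := [L2g1, L2g17, L2g17, L2g12])
      (List.forall_mem_cons.mpr ⟨q2_1, (List.forall_mem_cons.mpr ⟨q2_17, (List.forall_mem_cons.mpr ⟨q2_17, (List.forall_mem_cons.mpr ⟨q2_12, (fun _ h => absurd h List.not_mem_nil)⟩)⟩)⟩)⟩) L3eq2 (by decide +kernel)
  have q3_13 : Realised (ptsStab Q ([⟨0, by decide⟩, ⟨3, by decide⟩, ⟨15, by decide⟩] : List (Fin 4095))) L3g13 := Realised.inv q3_2 L3inv2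
  have q3_3 : Realised (ptsStab Q ([⟨0, by decide⟩, ⟨3, by decide⟩, ⟨15, by decide⟩] : List (Fin 4095))) L3g3 :=
    realised_new (prev := ([⟨0, by decide⟩, ⟨3, by decide⟩] : List (Fin 4095))) (ts := [L2g0, L2g6, L2g8, L2g16, L2g12])
      (List.forall_mem_cons.mpr ⟨q2_0, (List.forall_mem_cons.mpr ⟨q2_6, (List.forall_mem_cons.mpr ⟨q2_8, (List.forall_mem_cons.mpr ⟨q2_16, (List.forall_mem_cons.mpr ⟨q2_12, (fun _ h => absurd h List.not_mem_nil)⟩)⟩)⟩)⟩)⟩) L3eq3 (by decide +kernel)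
  have q3_14 : Realised (ptsStab Q ([⟨0, by decide⟩, ⟨3, by decide⟩, ⟨15, by decide⟩] : List (Fin 4095))) L3g14 := Realised.inv q3_3 L3inv3
  have q3_4 : Realised (ptsStab Q ([⟨0, by decide⟩, ⟨3, by decide⟩, ⟨15, by decide⟩] : List (Fin 4095))) L3g4 :=
    realised_new (prev := ([⟨0, by decide⟩, ⟨3, by decide⟩] : List (Fin 4095))) (ts := [L2g3, L2g8, L2g11])
      (List.forall_mem_cons.mpr ⟨q2_3, (List.forall_mem_cons.mpr ⟨q2_8, (List.forall_mem_cons.mpr ⟨q2_11, (fun _ h => absurd h List.not_mem_nil)⟩)⟩)⟩) L3eq4 (by decide +kernel)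
  have q3_15 : Realised (ptsStab Q ([⟨0, by decide⟩, ⟨3, by decide⟩, ⟨15, by decide⟩] : List (Fin 4095))) L3g15 := Realised.inv q3_4 L3inv4
  have q3_5 : Realised (ptsStab Q ([⟨0, by decide⟩, ⟨3, by decide⟩, ⟨15, by decide⟩] : List (Fin 4095))) L3g5 :=
    realised_new (prev := ([⟨0, by decide⟩, ⟨3, by decide⟩] : List (Fin 4095))) (ts := [L2g6, L2g8, L2g10, L2g19, L2g16])
      (List.forall_mem_cons.mpr ⟨q2_6, (List.forall_mem_cons.mpr ⟨q2_8, (List.forall_mem_cons.mpr ⟨q2_10, (List.forall_mem_cons.mpr ⟨q2_19, (List.forall_mem_cons.mpr ⟨q2_16, (fun _ h => absurd h List.not_mem_nil)⟩)⟩)⟩)⟩)⟩) L3eq5 (by decide +kernel)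
  have q3_16 : Realised (ptsStab Q ([⟨0, by decide⟩, ⟨3, by decide⟩, ⟨15, by decide⟩] : List (Fin 4095))) L3g16 := Realised.inv q3_5 L3inv5
  have q3_6 : Realised (ptsStab Q ([⟨0, by decide⟩, ⟨3, by decide⟩, ⟨15, by decide⟩] : List (Fin 4095))) L3g6 :=
    realised_new (prev := ([⟨0, by decide⟩, ⟨3, by decide⟩] : List (Fin 4095))) (ts := [L2g1, L2g14, L2g21])
      (List.forall_mem_cons.mpr ⟨q2_1, (List.forall_mem_cons.mpr ⟨q2_14, (List.forall_mem_cons.mpr ⟨q2_21, (fun _ h => absurd h List.not_mem_nil)⟩)⟩)⟩) L3eq6 (by decide +kernel)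
  have q3_17 : Realised (ptsStab Q ([⟨0, by decide⟩, ⟨3, by decide⟩, ⟨15, by decide⟩] : List (Fin 4095))) L3g17 := Realised.inv q3_6 L3inv6
  have q3_7 : Realised (ptsStab Q ([⟨0, by decide⟩, ⟨3, by decide⟩, ⟨15, by decide⟩] : List (Fin 4095))) L3g7 :=
    realised_new (prev := ([⟨0, by decide⟩, ⟨3, by decide⟩] : List (Fin 4095))) (ts := [L2g6, L2g8, L2g4, L2g19, L2g17])
      (List.forall_mem_cons.mpr ⟨q2_6, (List.forall_mem_cons.mpr ⟨q2_8, (List.forall_mem_cons.mpr ⟨q2_4, (List.forall_mem_cons.mpr ⟨q2_19, (List.forall_mem_cons.mpr ⟨q2_17, (fun _ h => absurd h List.not_mem_nil)⟩)⟩)⟩)⟩)⟩) L3eq7 (by decide +kernel)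
  have q3_18 : Realised (ptsStab Q ([⟨0, by decide⟩, ⟨3, by decide⟩, ⟨15, by decide⟩] : List (Fin 4095))) L3g18 := Realised.inv q3_7 L3inv7
  have q3_8 : Realised (ptsStab Q ([⟨0, by decide⟩, ⟨3, by decide⟩, ⟨15, by decide⟩] : List (Fin 4095))) L3g8 :=
    realised_new (prev := ([⟨0, by decide⟩, ⟨3, by decide⟩] : List (Fin 4095))) (ts := [L2g1, L2g10, L2g14])
      (List.forall_mem_cons.mpr ⟨q2_1, (List.forall_mem_cons.mpr ⟨q2_10, (List.forall_mem_cons.mpr ⟨q2_14, (fun _ h => absurd h List.not_mem_nil)⟩)⟩)⟩) L3eq8 (by decide +kernel)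
  have q3_19 : Realised (ptsStab Q ([⟨0, by decide⟩, ⟨3, by decide⟩, ⟨15, by decide⟩] : List (Fin 4095))) L3g19 := Realised.inv q3_8 L3inv8
  have q3_9 : Realised (ptsStab Q ([⟨0, by decide⟩, ⟨3, by decide⟩, ⟨15, by decide⟩] : List (Fin 4095))) L3g9 :=
    realised_new (prev := ([⟨0, by decide⟩, ⟨3, by decide⟩] : List (Fin 4095))) (ts := [L2g10, L2g5, L2g17])
      (List.forall_mem_cons.mpr ⟨q2_10, (List.forall_mem_cons.mpr ⟨q2_5, (List.forall_mem_cons.mpr ⟨q2_17, (fun _ h => absurd h List.not_mem_nil)⟩)⟩)⟩) L3eq9 (by decide +kernel)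
  have q3_20 : Realised (ptsStab Q ([⟨0, by decide⟩, ⟨3, by decide⟩, ⟨15, by decide⟩] : List (Fin 4095))) L3g20 := Realised.inv q3_9 L3inv9
  have q3_10 : Realised (ptsStab Q ([⟨0, by decide⟩, ⟨3, by decide⟩, ⟨15, by decide⟩] : List (Fin 4095))) L3g10 :=
    realised_new (prev := ([⟨0, by decide⟩, ⟨3, by decide⟩] : List (Fin 4095))) (ts := [L2g3, L2g5, L2g17, L2g12])
      (List.forall_mem_cons.mpr ⟨q2_3, (List.forall_mem_cons.mpr ⟨q2_5, (List.forall_mem_cons.mpr ⟨q2_17, (List.forall_mem_cons.mpr ⟨q2_12, (fun _ h => absurd h List.not_mem_nil)⟩)⟩)⟩)⟩) L3eq10 (by decide +kernel)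
  have q3_21 : Realised (ptsStab Q ([⟨0, by decide⟩, ⟨3, by decide⟩, ⟨15, by decide⟩] : List (Fin 4095))) L3g21 := Realised.inv q3_10 L3inv10
  have R3 : ∀ t ∈ [L3g0, L3g1, L3g2, L3g3, L3g4, L3g5, L3g6, L3g7, L3g8, L3g9, L3g10, L3g11, L3g12, L3g13, L3g14, L3g15, L3g16, L3g17, L3g18, L3g19, L3g20, L3g21], Realised (ptsStab Q ([⟨0, by decide⟩, ⟨3, by decide⟩, ⟨15, by decide⟩] : List (Fin 4095))) t :=
    List.forall_mem_cons.mpr ⟨q3_0, List.forall_mem_cons.mpr ⟨q3_1, List.forall_mem_cons.mpr ⟨q3_2, List.forall_mem_cons.mpr ⟨q3_3, List.forall_mem_cons.mpr ⟨q3_4, List.forall_mem_cons.mpr ⟨q3_5, List.forall_mem_cons.mpr ⟨q3_6, List.forall_mem_cons.mpr ⟨q3_7, List.forall_mem_cons.mpr ⟨q3_8, List.forall_mem_cons.mpr ⟨q3_9, List.forall_mem_cons.mpr ⟨q3_10, List.forall_mem_cons.mpr ⟨q3_11, List.forall_mem_cons.mpr ⟨q3_12, List.forall_mem_cons.mpr ⟨q3_13, List.forall_mem_cons.mpr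 ⟨q3_14, List.forall_mem_cons.mpr ⟨q3_15, List.forall_mem_cons.mpr ⟨q3_16, List.forall_mem_cons.mpr ⟨q3_17, List.forall_mem_cons.mpr ⟨q3_18, List.forall_mem_cons.mpr ⟨q3_19, List.forall_mem_cons.mpr ⟨q3_20, List.forall_mem_cons.mpr ⟨q3_21, (fun _ h => absurd h List.not_mem_nil)⟩⟩⟩⟩⟩⟩⟩⟩⟩⟩⟩⟩⟩⟩⟩⟩⟩⟩⟩⟩⟩⟩
  have q4_0 : Realised (ptsStab Q ([⟨0, by decide⟩, ⟨3, by decide⟩, ⟨15, by decide⟩, ⟨63, by decide⟩] : List (Fin 4095))) L4g0 :=
    realised_new (prev := ([⟨0, by decide⟩, ⟨3, by decide⟩, ⟨15, by decide⟩] : List (Fin 4095))) (ts := [L3g0, L3g10, L3g3, L3g12, L3g11])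
      (List.forall_mem_cons.mpr ⟨q3_0, (List.forall_mem_cons.mpr ⟨q3_10, (List.forall_mem_cons.mpr ⟨q3_3, (List.forall_mem_cons.mpr ⟨q3_12, (List.forall_mem_cons.mpr ⟨q3_11, (fun _ h => absurd h List.not_mem_nil)⟩)⟩)⟩)⟩)⟩) L4eq0 (by decide +kernel)
  have q4_3 : Realised (ptsStab Q ([⟨0, by decide⟩, ⟨3, by decide⟩, ⟨15, by decide⟩, ⟨63, by decide⟩] : List (Fin 4095))) L4g3 := Realised.inv q4_0 L4inv0
  have q4_1 : Realised (ptsStab Q ([⟨0, by decide⟩, ⟨3, by decide⟩, ⟨15, by decide⟩, ⟨63, by decide⟩] : List (Fin 4095))) L4g1 :=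
    realised_new (prev := ([⟨0, by decide⟩, ⟨3, by decide⟩, ⟨15, by decide⟩] : List (Fin 4095))) (ts := [L3g0, L3g7, L3g19, L3g12, L3g11])
      (List.forall_mem_cons.mpr ⟨q3_0, (List.forall_mem_cons.mpr ⟨q3_7, (List.forall_mem_cons.mpr ⟨q3_19, (List.forall_mem_cons.mpr ⟨q3_12, (List.forall_mem_cons.mpr ⟨q3_11, (fun _ h => absurd h List.not_mem_nil)⟩)⟩)⟩)⟩)⟩) L4eq1 (by decide +kernel)
  have q4_4 : Realised (ptsStab Q ([⟨0, by decide⟩, ⟨3, by decide⟩, ⟨15, by decide⟩, ⟨63, by decide⟩] : List (Fin 4095))) L4g4 := Realised.inv q4_1 L4inv1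
  have q4_2 : Realised (ptsStab Q ([⟨0, by decide⟩, ⟨3, by decide⟩, ⟨15, by decide⟩, ⟨63, by decide⟩] : List (Fin 4095))) L4g2 :=
    realised_new (prev := ([⟨0, by decide⟩, ⟨3, by decide⟩, ⟨15, by decide⟩] : List (Fin 4095))) (ts := [L3g0, L3g1, L3g9, L3g16, L3g12, L3g11])
      (List.forall_mem_cons.mpr ⟨q3_0, (List.forall_mem_cons.mpr ⟨q3_1, (List.forall_mem_cons.mpr ⟨q3_9, (List.forall_mem_cons.mpr ⟨q3_16, (List.forall_mem_cons.mpr ⟨q3_12, (List.forall_mem_cons.mpr ⟨q3_11, (fun _ h => absurd h List.not_mem_nil)⟩)⟩)⟩)⟩)⟩)⟩) L4eq2 (by decide +kernel)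
  have q4_5 : Realised (ptsStab Q ([⟨0, by decide⟩, ⟨3, by decide⟩, ⟨15, by decide⟩, ⟨63, by decide⟩] : List (Fin 4095))) L4g5 := Realised.inv q4_2 L4inv2
  have R4 : ∀ t ∈ [L4g0, L4g1, L4g2, L4g3, L4g4, L4g5], Realised (ptsStab Q ([⟨0, by decide⟩, ⟨3, by decide⟩, ⟨15, by decide⟩, ⟨63, by decide⟩] : List (Fin 4095))) t :=
    List.forall_mem_cons.mpr ⟨q4_0, List.forall_mem_cons.mpr ⟨q4_1, List.forall_mem_cons.mpr ⟨q4_2, List.forall_mem_cons.mpr ⟨q4_3, List.forall_mem_cons.mpr ⟨q4_4, List.forall_mem_cons.mpr ⟨q4_5, (fun _ h => absurd h List.not_mem_nil)⟩⟩⟩⟩⟩⟩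
  have c5 : 1 ≤ Nat.card (ptsStab Q ([⟨0, by decide⟩, ⟨3, by decide⟩, ⟨15, by decide⟩, ⟨63, by decide⟩, ⟨255, by decide⟩] : List (Fin 4095))) := one_le_card_ptsStab _ _
  have c4 : 4 ≤ Nat.card (ptsStab Q ([⟨0, by decide⟩, ⟨3, by decide⟩, ⟨15, by decide⟩, ⟨63, by decide⟩] : List (Fin 4095))) := by
    have h := card_ptsStab_ge ([⟨0, by decide⟩, ⟨3, by decide⟩, ⟨15, by decide⟩, ⟨63, by decide⟩] : List (Fin 4095)) (⟨255, by decide⟩ : Fin 4095) _ R4 mark4 rk4 via4 src4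
      reach4 count4 c5
    exact h
  have c3 : 64 ≤ Nat.card (ptsStab Q ([⟨0, by decide⟩, ⟨3, by decide⟩, ⟨15, by decide⟩] : List (Fin 4095))) := by
    have h := card_ptsStab_ge ([⟨0, by decide⟩, ⟨3, by decide⟩, ⟨15, by decide⟩] : List (Fin 4095)) (⟨63, by decide⟩ : Fin 4095) _ R3 mark3 rk3 via3 src3
      reach3 count3 c4
    exact h
  have c2 : 1024 ≤ Nat.card (ptsStab Q ([⟨0, by decide⟩, ⟨3, by decide⟩] : List (Fin 4095))) := by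
    have h := card_ptsStab_ge ([⟨0, by decide⟩, ⟨3, by decide⟩] : List (Fin 4095)) (⟨15, by decide⟩ : Fin 4095) _ R2 mark2 rk2 via2 src2
      reach2 count2 c3
    exact h
  have c1 : 61440 ≤ Nat.card (ptsStab Q ([⟨0, by decide⟩] : List (Fin 4095))) := by
    have h := card_ptsStab_ge ([⟨0, by decide⟩] : List (Fin 4095)) (⟨3, by decide⟩ : Fin 4095) _ R1 mark1 rk1 via1 src1
      reach1 count1 c2
    exact h
  have c0 : 251596800 ≤ Nat.card (ptsStab Q ([] : List (Fin 4095))) := by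
    have h := card_ptsStab_ge ([] : List (Fin 4095)) (⟨0, by decide⟩ : Fin 4095) _ R0 mark0 rk0 via0 src0
      reach0 count0 c1
    exact h
  rw [ptsStab_nil] at c0
  exact c0

end CfsgLib.SporRecognition.Cert.SuzG24V
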