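import Cfsg.Agent.Lib.SporRecognition.Cert.SuzG24V.LowerT

/-! Generated coset-enumeration certificate: Suz over <nonzero vectors of GF(4)^6>, 4095 cosets. -/

set_option autoImplicit false
set_option maxRecDepth 20000
set_option linter.all false
set_option Elab.async false

namespace CfsgLib.SporRecognition.Cert.SuzG24V

open CfsgLib.SporRecognition.CosetCert

theorem L0inv0 : allBelow 12 4095 (invStep L0g0 L0g2 4095) = true := by decide +kernel

theorem L0inv1 : allBelow 12 4095 (invStep L0g1 L0g3 4095) = true := by decide +kernel

end CfsgLib.SporRecognition.Cert.SuzG24V
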