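import Cfsg.Agent.Lib.SporRecognition.Cert.SuzG24V.LowerT

/-! Generated coset-enumeration certificate: Suz over <nonzero vectors of GF(4)^6>, 4095 cosets. -/

set_option autoImplicit false
set_option maxRecDepth 20000
set_option linter.all false
set_option Elab.async false

namespace CfsgLib.SporRecognition.Cert.SuzG24V

open CfsgLib.SporRecognition.CosetCert

def mark3Lit : Nat := 0x7fff8000000000000000
noncomputable def mark3 (u : Nat) : Nat := Nat.land (Nat.shiftRight mark3Lit (Nat.mul 1 u)) 1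
def rk3Lit : Nat := 0x365a95a600000000000000000000000000000000
noncomputable def rk3 (u : Nat) : Nat := Nat.land (Nat.shiftRight rk3Lit (Nat.mul 2 u)) 3
def via3Lit : Nat := 0x142a328c50940338ce500000000000000000000000000000000000000000000000000000000000000000000000000000000
noncomputable def via3 (u : Nat) : Nat := Nat.land (Nat.shiftRight via3Lit (Nat.mul 5 u)) 31
def src3Lit : Nat := 0x4703f04503f03f04504d04503f03f03f04504503f045000000000000000000000000000000000000000000000000000000000000000000000000000000000000000000000000000000000000000000000000000000000000000000000000000000000000000000000000000000000000000000000000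
noncomputable def src3 (u : Nat) : Nat := Nat.land (Nat.shiftRight src3Lit (Nat.mul 12 u)) 4095
theorem reach3_c0 : allPow 4095 (reachStep [L3g0, L3g1, L3g2, L3g3, L3g4, L3g5, L3g6, L3g7, L3g8, L3g9, L3g10, L3g11, L3g12, L3g13, L3g14, L3g15, L3g16, L3g17, L3g18, L3g19, L3g20, L3g21] 63 mark3 rk3 via3 src3 4095) 10 0 = true := by decide +kernel
theorem reach3_c1 : allPow 4095 (reachStep [L3g0, L3g1, L3g2, L3g3, L3g4, L3g5, L3g6, L3g7, L3g8, L3g9, L3g10, L3g11, L3g12, L3g13, L3g14, L3g15, L3g16, L3g17, L3g18, L3g19, L3g20, L3g21] 63 mark3 rk3 via3 src3 4095) 10 1024 = true := by decide +kernel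
theorem reach3_c2 : allPow 4095 (reachStep [L3g0, L3g1, L3g2, L3g3, L3g4, L3g5, L3g6, L3g7, L3g8, L3g9, L3g10, L3g11, L3g12, L3g13, L3g14, L3g15, L3g16, L3g17, L3g18, L3g19, L3g20, L3g21] 63 mark3 rk3 via3 src3 4095) 10 2048 = true := by decide +kernel
theorem reach3_c3 : allPow 4095 (reachStep [L3g0, L3g1, L3g2, L3g3, L3g4, L3g5, L3g6, L3g7, L3g8, L3g9, L3g10, L3g11, L3g12, L3g13, L3g14, L3g15, L3g16, L3g17, L3g18, L3g19, L3g20, L3g21] 63 mark3 rk3 via3 src3 4095) 10 3072 = true := by decide +kernel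
theorem reach3 : allBelow 12 4095 (reachStep [L3g0, L3g1, L3g2, L3g3, L3g4, L3g5, L3g6, L3g7, L3g8, L3g9, L3g10, L3g11, L3g12, L3g13, L3g14, L3g15, L3g16, L3g17, L3g18, L3g19, L3g20, L3g21] 63 mark3 rk3 via3 src3 4095) = true :=
  allBelow_of_upto (hi := 4096)
    (Upto.trans (mid := 2048) (Upto.trans (mid := 1024) ((Upto.of_pow reach3_c0 (Nat.le_refl _)) : Upto _ _ 0 (0 + 2 ^ 10))
    ((Upto.of_pow reach3_c1 (Nat.le_refl _)) : Upto _ _ 1024 (1024 + 2 ^ 10)))
    (Upto.trans (mid := 3072) ((Upto.of_pow reach3_c2 (Nat.le_refl _)) : Upto _ _ 2048 (2048 + 2 ^ 10))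
    ((Upto.of_pow reach3_c3 (Nat.le_refl _)) : Upto _ _ 3072 (3072 + 2 ^ 10))))
    (by decide) (by decide)

theorem count3 : countLab 12 4095 mark3 1 = 16 := by decide +kernel

end CfsgLib.SporRecognition.Cert.SuzG24V
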