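import Cfsg.Agent.Lib.SporRecognition.Cert.SuzG24V.Tables

/-! Generated coset-enumeration certificate: Suz over <nonzero vectors of GF(4)^6>, 4095 cosets. -/

set_option autoImplicit false
set_option maxRecDepth 20000
set_option linter.all false
set_option Elab.async false

namespace CfsgLib.SporRecognition.Cert.SuzG24V

open CfsgLib.SporRecognition.CosetCert

theorem inv_T1 : allBelow 12 4095 (invStep T1 T1 4095) = true := by decide +kernel

theorem inv_T2 : allBelow 12 4095 (invStep T2 T2 4095) = true := by decide +kernel

theorem inv_T3 : allBelow 12 4095 (invStep T3 T3 4095) = true := by decide +kernel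

theorem inv_T4 : allBelow 12 4095 (invStep T4 T4 4095) = true := by decide +kernel

theorem inv_T5 : allBelow 12 4095 (invStep T5 T5 4095) = true := by decide +kernel

theorem inv_T6 : allBelow 12 4095 (invStep T6 T6 4095) = true := by decide +kernel

theorem inv_id : allBelow 12 4095 (invStep (fun u => u) (fun u => u) 4095) = true := by decide +kernel

theorem tablesOK : TablesOK tabs 4095 := by
  refine tablesOK_of_checks (d := 12) fun a b => ?_
  cases a <;> cases b
  · exact inv_T1
  · exact inv_T1
  · exact inv_T2
  · exact inv_T2
  · exact inv_T3
  · exact inv_T3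
  · exact inv_T4
  · exact inv_T4
  · exact inv_T5
  · exact inv_T5
  · exact inv_T6
  · exact inv_T6
  · exact inv_id
  · exact inv_id

end CfsgLib.SporRecognition.Cert.SuzG24V
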